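/-
Suzuki 2-groups with a solvable transitive automorphism group, part E: reduction via Huppert's
theorem on solvable groups transitive on non-zero vectors.
-/
import Cfsg.Agent.Shaw.D
import Cfsg.Agent.Perm.Huppert3

set_option autoImplicit false
set_option linter.unusedSectionVars false

namespace CF.Shaw
open CF.Suz Subgroup

set_option synthInstance.maxSize 4096 in
set_option synthInstance.maxHeartbeats 200000 in
theorem num_small : ∀ n < 13, 2 ≤ n → ∀ t < 13, t ∣ n → t ∣ 2 ^ n - 1 → ∀ a < n, ∀ b < n, ∀ c < n,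
    (2 ^ a + 2 ^ b) % ((2 ^ n - 1) / t) = 2 ^ c % ((2 ^ n - 1) / t) → a = b := by decide +kernel

theorem six_le (k : ℕ) (hk : 5 ≤ k) : 6 * k + 1 < 2 ^ k := by
  induction k, hk using Nat.le_induction with
  | base => norm_num
  | succ k _ ih => rw [pow_succ]; omega

theorem num {n m t a b c : ℕ} (hn : 2 ≤ n) (hm : m * t = 2 ^ n - 1) (ht : t ∣ n) (ha : a < n)
    (hb : b < n) (hc : c < n) (h : 2 ^ a + 2 ^ b ≡ 2 ^ c [MOD m]) : a = b := by
  have tn := Nat.le_of_dvd (by omega) ht
  have t0 : 0 < t := Nat.pos_of_dvd_of_pos ht (by omega)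
  by_cases h13 : n < 13
  · refine num_small n h13 hn t (by omega) ht (Dvd.intro_left _ hm) a ha b hb c hc ?_
    rwa [← hm, Nat.mul_div_cancel _ t0]
  have h1 : 2 ^ n ≡ 1 [MOD m] :=
    ((Nat.modEq_iff_dvd' Nat.one_le_two_pow).2 (Dvd.intro _ hm)).symm
  let f : ℕ → ℕ → ℕ := fun s x => if s ≤ x then x - s else x + n - s
  have hf : ∀ s < n, ∀ x, 2 ^ x * 2 ^ (n - s) ≡ 2 ^ f s x [MOD m] := fun s hs x => by
    simp only [f]
    split_ifs with h2
    · rw [← pow_add, show x + (n - s) = (x - s) + n by omega, pow_add]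
      simpa using h1.mul_left (2 ^ (x - s))
    · rw [← pow_add, show x + (n - s) = x + n - s by omega]
  obtain ⟨k, hk5, hk3, hk⟩ : ∃ k, 5 ≤ k ∧ n ≤ 3 * k ∧ 3 * k ≤ n + 2 :=
    ⟨(n + 2) / 3, by omega, by omega, by omega⟩
  obtain ⟨s, hs, sa, sb, sc⟩ : ∃ s < n, f s a + k ≤ n ∧ f s b + k ≤ n ∧ f s c + k ≤ n := by
    by_contra hc'
    push Not at hc'
    have e1 := hc' a ha
    have e2 := hc' b hb
    have e3 := hc' c hc
    simp only [f] at e1 e2 e3
    split_ifs at e1 e2 e3 <;> omega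
  have h2 : 2 ^ f s a + 2 ^ f s b ≡ 2 ^ f s c [MOD m] :=
    ((hf s hs a).add (hf s hs b)).symm.trans (by
      rw [← add_mul]; exact (h.mul_right _).trans (hf s hs c))
  have b1 : ∀ x, x + k ≤ n → 2 ^ x ≤ 2 ^ (n - k) := fun x hx =>
    Nat.pow_le_pow_right two_pos (by omega)
  have b2 : 2 * 2 ^ (n - k) < m := by
    have e : 2 ^ n = 2 ^ k * 2 ^ (n - k) := by rw [← pow_add]; congr 1; omega
    have := six_le k hk5
    have p0 : 0 < 2 ^ (n - k) := by positivity
    by_contra hle
    push Not at hle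
    have : m * t ≤ 2 * 2 ^ (n - k) * (3 * k) := Nat.mul_le_mul hle (by omega)
    have : (6 * k + 2) * 2 ^ (n - k) ≤ 2 ^ k * 2 ^ (n - k) := Nat.mul_le_mul_right _ (by omega)
    have : m * t + 1 = 2 ^ n := by rw [hm]; exact Nat.sub_add_cancel Nat.one_le_two_pow
    nlinarith
  have h3 := Nat.ModEq.eq_of_lt_of_lt h2 (by have := b1 _ sa; have := b1 _ sb; omega)
    (by have := b1 _ sc; omega)
  have h4 : f s a = f s b := by
    generalize f s a = x at h3
    generalize f s b = y at h3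
    generalize f s c = z at h3
    have key : ∀ x y : ℕ, x < y → 2 ^ x + 2 ^ y ≠ 2 ^ z := fun x y hxy e => by
      have p1 : 0 < 2 ^ x := by positivity
      have p2 : 2 ^ x < 2 ^ y := Nat.pow_lt_pow_right one_lt_two hxy
      have p3 : y < z := (Nat.pow_lt_pow_iff_right one_lt_two).1 (by omega)
      have := Nat.pow_le_pow_right two_pos (show y + 1 ≤ z from p3)
      rw [pow_succ] at this
      omega
    rcases lt_trichotomy x y with h | h | h
    exacts [absurd h3 (key x y h), h, absurd (by omega) (key y x h)]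
  simp only [f] at h4
  split_ifs at h4 <;> omega

theorem big_of_dvd {F : Type*} [Field F] [Fintype F] [CharP F 2] (hq : Fintype.card F ≠ 2)
    {lam : F} (h0 : lam ≠ 0) (h : Fintype.card F - 1 ∣ orderOf lam * Nat.card (F ≃+* F)) :
    Big lam := by
  obtain ⟨n, hn0, hn⟩ := exists_card_eq F
  have n2 : 2 ≤ n := by
    by_contra hc
    exact hq (by rw [hn, show n = 1 by omega]; rfl)
  obtain ⟨t, ht⟩ := orderOf_dvd_of_pow_eq_one (FiniteField.pow_card_sub_one_eq_one lam h0)
  have hf := fin_ord h0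
  rw [(aut_facts hn).1, ht, Nat.mul_dvd_mul_iff_left hf.orderOf_pos] at h
  have red : ∀ σ : F ≃+* F, ∃ a < n, σ = frob F ^ a := fun σ => by
    obtain ⟨k, rfl⟩ := exists_frob_pow σ
    exact ⟨k % n, Nat.mod_lt _ hn0, by rw [← (aut_facts hn).1, pow_mod_natCard]⟩
  refine ⟨h0, fun σ τ ρ e => ?_⟩
  obtain ⟨a, ha, rfl⟩ := red σ
  obtain ⟨b, hb, rfl⟩ := red τ
  obtain ⟨c, hc, rfl⟩ := red ρ
  simp only [frob_pow_apply, ← pow_add] at e
  rw [num n2 (by rw [← ht, hn]) h ha hb hc (hf.pow_eq_pow_iff_modEq.1 e)]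

theorem exists_scalar {G V F : Type*} [Group G] [Finite G] [AddCommGroup V] [DistribMulAction G V]
    [Finite V] [Nontrivial V] [FaithfulSMul G V] [Field F] [Fintype F] [CharP F 2]
    (hq : Fintype.card F ≠ 2) (h : CF.Perm.Tr G V) (e : V ≃+ F)
    (he : ∀ g : G, ∃ (a : F) (τ : F ≃+* F), ∀ v : V, e (g • v) = a * τ (e v)) :
    ∃ (g : G) (lam : F), Big lam ∧ ∀ v : V, e (g • v) = lam * e v := by
  choose a τ he using he
  have a0 : ∀ g, a g ≠ 0 := fun g h0 => by
    have := he g (e.symm 1)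
    rw [h0, zero_mul, EmbeddingLike.map_eq_zero_iff, smul_eq_zero_iff_eq] at this
    simp at this
  have uniq : ∀ {x y : F} {σ σ' : F ≃+* F}, x ≠ 0 → (∀ v, x * σ (e v) = y * σ' (e v)) →
      x = y ∧ σ = σ' := fun {x y σ σ'} x0 h => by
    have h1 : x = y := by simpa using h (e.symm 1)
    exact ⟨h1, RingEquiv.ext fun z => mul_left_cancel₀ x0 (by simpa [h1] using h (e.symm z))⟩
  have mul : ∀ g g', a (g * g') = a g * τ g (a g') ∧ τ (g * g') = τ g * τ g' := fun g g' =>
    uniq (a0 _) fun v => by rw [← he, mul_smul, he, he, map_mul, mul_assoc]; rfl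
  let T : G →* (F ≃+* F) := MonoidHom.mk' τ fun g g' => (mul g g').2
  let χ : T.ker →* Fˣ := MonoidHom.mk' (fun g => Units.mk0 (a g) (a0 g)) fun g g' => Units.ext (by
    show a (g * g') = a g * a g'
    rw [(mul g g').1, show τ g = 1 from g.2]; rfl)
  have hk : ∀ g : T.ker, ∀ v, e ((g : G) • v) = a g * e v := fun g v => by
    rw [he, show τ g = 1 from g.2]; rfl
  have inj : Function.Injective χ := fun g g' e' => Subtype.ext (eq_of_smul_eq_smul (α := V)
    fun v => e.injective (by rw [hk, hk, show a g = a g' from congrArg Units.val e']))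
  have := isCyclic_of_injective χ inj
  obtain ⟨g, hg⟩ := IsCyclic.exists_ofOrder_eq_natCard (α := T.ker)
  refine ⟨g, a g, big_of_dvd hq (a0 g) ?_, hk g⟩
  have o1 : orderOf (a g) = Nat.card T.ker := by
    rw [← hg, ← orderOf_injective χ inj, ← orderOf_units]; rfl
  rw [o1, ← Nat.card_eq_fintype_card, ← Nat.card_congr e.toEquiv]
  refine h.card_dvd.trans ?_
  rw [← T.ker.card_mul_index, index_ker]
  exact Nat.mul_dvd_mul_left _ (card_subgroup_dvd_card _)

theorem exists_HB {G : Type*} [Group G] [Finite G] (hG : IsPGroup 2 G)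
    (htwo : ∃ x y : G, x ≠ y ∧ x ≠ 1 ∧ x ^ 2 = 1 ∧ y ≠ 1 ∧ y ^ 2 = 1) (Y : Subgroup (MulAut G))
    [Group.IsSolvable Y]
    (hY : ∀ x y : G, x ≠ 1 → x ^ 2 = 1 → y ≠ 1 → y ^ 2 = 1 → ∃ a ∈ Y, a x = y) :
    ∃ (F : Type) (_ : Field F) (_ : Fintype F) (_ : CharP F 2) (ξ : MulAut G) (ω : G → F) (lam : F),
      HB G ξ ω lam := by
  classical
  obtain ⟨x, y, hxy, x1, x2, y1, y2⟩ := htwo
  have cen : ∀ {v : G}, v * v = 1 → ∀ g : G, g * v = v * g := fun {v} hv g => by
    by_cases h1 : v = 1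
    · simp [h1]
    have : Nontrivial G := ⟨x, 1, x1⟩
    obtain ⟨z, hz⟩ := (nontrivial_iff_exists_ne (1 : center G)).1 hG.center_nontrivial
    obtain ⟨k, hk1, hk2⟩ := CF.Solv.exists_pow_notMem_pow_mem hG (U := ⊥) (g := (z : G))
      (fun e => hz (Subtype.ext e))
    obtain ⟨l, -, rfl⟩ := hY _ v hk1 hk2 h1 (by rw [pow_two, hv])
    obtain ⟨g, rfl⟩ := l.surjective g
    rw [← map_mul, ← map_mul, mem_center_iff.1 ((center G).pow_mem z.2 _) g]
  let V : Subgroup G :=
    { carrier := {x | x * x = 1}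
      one_mem' := by simp
      mul_mem' := fun {a b} ha hb => by
        show a * b * (a * b) = 1
        rw [mul_assoc, ← mul_assoc b, cen ha b, mul_assoc, hb, mul_one, ha]
      inv_mem' := fun {a} ha => by
        show a⁻¹ * a⁻¹ = 1
        rw [← mul_inv_rev, ha, inv_one] }
  have : V.Characteristic := characteristic_iff_le_comap.2 fun φ v hv => by
    show φ v * φ v = 1
    rw [← map_mul, show v * v = 1 from hv, map_one]
  let _ : CommGroup V := { (inferInstance : Group V) with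
    mul_comm := fun a b => Subtype.ext (cen b.2 a) }
  let r : Y →* MulAut V := (MulAut.characteristic V).comp Y.subtype
  let _ : DistribMulAction r.range (Additive V) :=
    { smul := fun g v => Additive.ofMul (g.1 v.toMul)
      one_smul := fun _ => rfl
      mul_smul := fun _ _ _ => rfl
      smul_zero := fun g => map_one g.1
      smul_add := fun g a b => map_mul g.1 a.toMul b.toMul }
  have : FaithfulSMul r.range (Additive V) :=
    ⟨fun {a b} h => Subtype.ext (MulEquiv.ext fun v => h (Additive.ofMul v))⟩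
  have : Group.IsSolvable r.range := Group.isSolvable_of_surjective r.rangeRestrict_surjective
  have xV : x ∈ V := by rwa [pow_two] at x2
  have yV : y ∈ V := by rwa [pow_two] at y2
  have : Nontrivial V := ⟨⟨x, xV⟩, 1, fun e => x1 (congrArg Subtype.val e)⟩
  have tr : CF.Perm.Tr r.range (Additive V) := fun v w hv hw => by
    obtain ⟨a, ha, e⟩ := hY v.toMul w.toMul (fun e => hv (Subtype.ext e)) (by
      rw [pow_two]; exact v.toMul.2) (fun e => hw (Subtype.ext e)) (by
      rw [pow_two]; exact w.toMul.2)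
    exact ⟨⟨r ⟨a, ha⟩, _, rfl⟩, Subtype.ext e⟩
  obtain ⟨n, hn⟩ := (hG.to_subgroup V).exists_card_eq
  have n0 : n ≠ 0 := by
    rintro rfl
    exact absurd hn (Finite.one_lt_card (α := V)).ne'
  let F := GaloisField 2 n
  let _ : Fintype F := Fintype.ofFinite F
  have hF : Nat.card F = Nat.card (Additive V) := (GaloisField.card 2 n n0).trans hn.symm
  have hq : Fintype.card F ≠ 2 := fun e => by
    rw [← Nat.card_eq_fintype_card, hF] at e
    obtain ⟨u, -, hu⟩ := (Nat.card_eq_two_iff' (1 : V)).1 e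
    exact hxy (congrArg Subtype.val ((hu ⟨x, xV⟩ fun e => x1 (congrArg Subtype.val e)).trans
      (hu ⟨y, yV⟩ fun e => y1 (congrArg Subtype.val e)).symm))
  obtain ⟨e, he⟩ := (tr.semilinear_or F hF).resolve_right fun h => by
    have : Even (Nat.card (Additive V)) := by
      rw [show Nat.card (Additive V) = 2 ^ n from hn]; exact (Nat.even_pow' n0).2 even_two
    rcases h with h | h | h | h | h | h <;> rw [h] at this <;> exact absurd this (by decide)
  obtain ⟨⟨_, g, rfl⟩, lam, hl, hg⟩ := exists_scalar hq tr e he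
  let ω : G → F := fun u => if h : u ∈ V then e (Additive.ofMul ⟨u, h⟩) else 0
  have hω : ∀ u (h : u ∈ V), ω u = e (Additive.ofMul ⟨u, h⟩) := fun u h => dif_pos h
  have hi : ∀ u ∈ V, (g : MulAut G) u ∈ V := fun u hu => (r g ⟨u, hu⟩).2
  have hk : ∀ (k : ℕ), ∀ u ∈ V, ω (((g : MulAut G) ^ k) u) = lam ^ k * ω u := fun k u hu => by
    induction k with
    | zero => simp
    | succ k ih =>
      have h1 := pow_inv_mem hi k u hu
      rw [pow_succ', MulAut.mul_apply, pow_succ', mul_assoc, ← ih, hω _ h1, ← hg, hω _ (hi _ h1)]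
      rfl
  obtain ⟨j, o, ho, hjo⟩ := Nat.exists_eq_two_pow_mul_odd (orderOf_pos (g : MulAut G)).ne'
  refine ⟨F, inferInstance, inferInstance, inferInstance, (g : MulAut G) ^ 2 ^ j, ω, lam ^ 2 ^ j,
    hG, ?_, cen, hl.of_orderOf ?_, hq, fun v w hv hw => ?_, fun v hv => ?_, fun z => ?_,
    fun v hv => hk _ v hv⟩
  · rw [orderOf_pow_of_dvd (by positivity) (Dvd.intro _ hjo.symm), hjo,
      Nat.mul_div_cancel_left _ (by positivity)]
    exact ho
  · rw [← frob_pow_apply]; exact (frob F ^ j).toMulEquiv.orderOf_eq lam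
  · rw [hω _ hv, hω _ hw, hω _ (V.mul_mem hv hw), ← map_add]; rfl
  · rw [hω _ hv, EmbeddingLike.map_eq_zero_iff]
    exact ⟨fun e => congrArg Subtype.val e, fun e => Subtype.ext e⟩
  · exact ⟨(e.symm z).toMul, (e.symm z).toMul.2, by rw [hω _ (e.symm z).toMul.2]; simp⟩

end CF.Shaw
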